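import Cfsg.Agent.FGS.KgvP.Gal
import Cfsg.Agent.S4201
import Cfsg.Agent.SOLV.Frattini
import Cfsg.Agent.SOLV.PSolvable
import Cfsg.Agent.PLOC.PFrattini

/-! Class numbers of `p`-solvable groups with trivial `p'`-core from the `k(GV)` bound. -/

set_option autoImplicit false
open Cfsg Subgroup
open scoped commutatorElement

namespace CL.KgvP

universe u

/-- The `k(GV)` bound. -/
def Kgv (p : ℕ) : Prop := ∀ (X : Type u) [Group X] [Finite X] (V : Subgroup X) [V.Normal],
  (∀ v ∈ V, v ^ p = 1) → ¬ p ∣ V.index → centralizer (V : Set X) = V →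
    Nat.card (ConjClasses X) ≤ Nat.card V

theorem cls_le (X : Type*) [Group X] [Finite X] : Nat.card (ConjClasses X) ≤ Nat.card X :=
  Nat.card_le_card_of_surjective _ ConjClasses.mk_surjective

variable {p : ℕ} [hp : Fact p.Prime]

theorem closed (hk : Kgv.{u} p) {X : Type u} [Group X] [Finite X] (hs : IsPSolvable p X)
    (h0 : pPrimeCore p X = ⊥) (hi : ¬ p ∣ (pCore p X).index) :
    Nat.card (ConjClasses X) ≤ Nat.card (pCore p X) ∧
      ((∃ a ∈ pCore p X, ∃ b ∈ pCore p X, a * b ≠ b * a) →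
        Nat.card (ConjClasses X) < Nat.card (pCore p X)) := by
  have hc := CL.IsPSolvable.centralizer_pCore_le hs h0
  have hQ := CL.isPGroup_pCore p X
  set Q := pCore p X with hQd
  set F := (frattini Q).map Q.subtype with hF
  have hFn : F.Normal := inferInstance
  have hFQ : F ≤ Q := map_subtype_le _
  have hcm : ∀ a ∈ Q, ∀ b ∈ Q, (a : X ⧸ F) * b = b * a := fun a ha b hb => by
    rw [← commutatorElement_eq_one_iff_mul_comm]
    exact (QuotientGroup.eq_one_iff ⁅a, b⁆).2
      (CL.PG.commutator_le_frattini_map hQ (commutator_mem_commutator ha hb))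
  let V := Q.map (QuotientGroup.mk' F)
  have hVn : V.Normal := (inferInstance : Q.Normal).map _ (QuotientGroup.mk'_surjective F)
  have hVi : V.index = Q.index :=
    index_map_eq _ (QuotientGroup.mk'_surjective F) (by rwa [QuotientGroup.ker_mk'])
  have h1 : Nat.card (ConjClasses (X ⧸ F)) ≤ Nat.card V := by
    refine hk _ V ?_ (by rwa [hVi]) (le_antisymm ?_ ?_)
    · rintro _ ⟨v, hv, rfl⟩
      rw [← map_pow]
      exact (QuotientGroup.eq_one_iff _).2 (CL.PG.pow_mem_frattini_map hQ hv)
    · intro g hg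
      obtain ⟨g, rfl⟩ := QuotientGroup.mk'_surjective F g
      refine ⟨g, CL.le_pCore_of_commutator_le_frattini hc (H := zpowers g) ?_ (mem_zpowers g), rfl⟩
      rw [← hQd, ← hF, ← CL.map_mk'_eq_bot_iff, map_commutator, commutator_comm,
        commutator_eq_bot_iff_le_centralizer, MonoidHom.map_zpowers, zpowers_le]
      exact hg
    · rintro _ ⟨a, ha, rfl⟩ _ ⟨b, hb, rfl⟩
      exact hcm b hb a ha
  have h2 : Nat.card F * Nat.card V = Nat.card Q := by
    have e1 := V.card_mul_index
    have e2 := Q.card_mul_index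
    have e3 := card_eq_card_quotient_mul_card_subgroup F
    apply Nat.eq_of_mul_eq_mul_right (Nat.pos_of_ne_zero (index_ne_zero_of_finite (H := Q)))
    rw [e2, e3, ← e1, hVi]; ring
  have h3 : Nat.card (ConjClasses F) * Nat.card (ConjClasses (X ⧸ F)) ≤ Nat.card Q :=
    h2 ▸ Nat.mul_le_mul (cls_le F) h1
  refine ⟨(Cfsg.Agent.S4201.result F).trans h3, ?_⟩
  rintro ⟨a, ha, b, hb, hab⟩
  by_contra hlt
  have h4 : ∀ y ∈ Q, ∃ n ∈ F, y * n * a = a * (y * n) := fun y hy => by
    by_contra hn
    push Not at hn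
    exact hlt ((gal_lt F a y (hcm y hy a ha) hn).trans_le h3)
  have h5 : (centralizer ({a} : Set X)).subgroupOf Q = ⊤ := by
    refine frattini_nongenerating (eq_top_iff.2 fun y _ => ?_)
    obtain ⟨_, ⟨n, hn, rfl⟩, e⟩ := h4 y y.2
    have : y = (y * n) * n⁻¹ := by group
    rw [this]
    exact mul_mem (mem_sup_left (mem_centralizer_singleton_iff.2 e)) (mem_sup_right (inv_mem hn))
  have h6 : (⟨b, hb⟩ : Q) ∈ (centralizer ({a} : Set X)).subgroupOf Q := by rw [h5]; trivial
  exact hab (mem_centralizer_singleton_iff.1 h6).symm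

theorem ind (hk : Kgv.{u} p) (n : ℕ) : ∀ (X : Type u) [Group X] [Finite X], Nat.card X = n →
    IsPSolvable p X → pPrimeCore p X = ⊥ →
    Nat.card (ConjClasses X) ≤ p ^ (Nat.card X).factorization p ∧
      (p ∣ (pCore p X).index → Nat.card (ConjClasses X) < p ^ (Nat.card X).factorization p) := by
  induction n using Nat.strong_induction_on with
  | _ n ih =>
  intro X _ _ hn hs h0
  by_cases hi : p ∣ (pCore p X).index
  swap
  · refine ⟨(closed hk hs h0 hi).1.trans ?_, fun h => (hi h).elim⟩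
    obtain ⟨P⟩ : Nonempty (Sylow p X) := inferInstance
    rw [← P.card_eq_multiplicity]
    exact card_le_of_le ((CL.isPGroup_pCore p X).le_sylow_of_normal P)
  suffices h : Nat.card (ConjClasses X) < p ^ (Nat.card X).factorization p from ⟨h.le, fun _ => h⟩
  set Q := pCore p X with hQd
  set K := pPrimeCore p (X ⧸ Q) with hKd
  have hK : ¬ p ∣ Nat.card K := CL.not_dvd_card_pPrimeCore p _
  set M := K.comap (QuotientGroup.mk' Q) with hM
  have hMn : M.Normal := inferInstance
  have hQM : Q ≤ M := fun x hx => by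
    show ((x : X ⧸ Q)) ∈ K
    rw [(QuotientGroup.eq_one_iff x).2 hx]; exact one_mem _
  obtain ⟨u, hu⟩ := exists_prime_orderOf_dvd_card' (G := X ⧸ Q) p hi
  have huK : u ∉ K := fun h => hK (hu.symm.dvd.trans (K.orderOf_dvd_natCard h))
  obtain ⟨u, rfl⟩ := QuotientGroup.mk_surjective u
  have hnt : Nontrivial X := ⟨u, 1, fun h => huK (by rw [h]; exact one_mem _)⟩
  have hQ0 : Q ≠ ⊥ := CL.IsPSolvable.pCore_ne_bot hs h0
  have e3 := card_eq_card_quotient_mul_card_subgroup M
  have hM1 : 1 < Nat.card M := (one_lt_card_iff_ne_bot M).2 fun h => hQ0 (le_bot_iff.1 (h ▸ hQM))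
  have hM2 : 1 < Nat.card (X ⧸ M) := one_lt_index_of_ne_top fun h => huK (by
    have : u ∈ M := by rw [h]; trivial
    exact this)
  have i1 := (ih _ (by rw [← hn, e3]; nlinarith) M rfl (CL.IsPSolvable.subgroup hs M) (by
    rw [CL.pPrimeCore_eq_bot_iff] at h0
    have := h0 ((pPrimeCore p M).map M.subtype) inferInstance
      (by rw [card_map_of_injective M.subtype_injective]; exact CL.coprime_card_pPrimeCore p M)
    exact (map_eq_bot_iff_of_injective _ M.subtype_injective).1 this)).1
  have i2 := (ih _ (by rw [← hn, e3]; nlinarith) (X ⧸ M) rfl (CL.IsPSolvable.quotient hs M) (by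
    have h1 := CL.pPrimeCore_quotient_pPrimeCore p (X ⧸ Q)
    have h2 : M.map (QuotientGroup.mk' Q) = K :=
      map_comap_eq_self_of_surjective (QuotientGroup.mk'_surjective Q) _
    let e : (X ⧸ Q) ⧸ K ≃* X ⧸ M := (QuotientGroup.quotientMulEquivOfEq h2.symm).trans
      (QuotientGroup.quotientQuotientEquivQuotient Q M hQM)
    rw [← CL.map_pPrimeCore_equiv e, h1, Subgroup.map_bot])).1
  have h3 : Nat.card (ConjClasses M) * Nat.card (ConjClasses (X ⧸ M)) ≤
      p ^ (Nat.card X).factorization p := by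
    rw [e3, Nat.factorization_mul (by omega) (by omega), Finsupp.add_apply, pow_add, mul_comm]
    exact Nat.mul_le_mul i2 i1
  by_contra hlt
  have h4 : ∀ x ∈ M, ∃ m ∈ M, u * m * x = x * (u * m) := fun x hx => by
    by_contra hn
    push Not at hn
    refine hlt ((gal_lt M x u ?_ hn).trans_le h3)
    rw [(QuotientGroup.eq_one_iff x).2 hx, mul_one, one_mul]
  have h5 := comm_of_cls K hK (u := (u : X ⧸ Q)) (orderOf_dvd_iff_pow_eq_one.1 hu.dvd) (by
    intro x hx
    obtain ⟨x, rfl⟩ := QuotientGroup.mk_surjective x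
    obtain ⟨m, hm, e⟩ := h4 x hx
    exact ⟨m, hm, congrArg (QuotientGroup.mk' Q) e⟩)
  exact huK (CL.IsPSolvable.centralizer_pPrimeCore_le (CL.IsPSolvable.quotient hs Q)
    (CL.pCore_quotient_pCore p X) h5)

theorem main (hk : Kgv.{u} p) {X : Type u} [Group X] [Finite X] (hs : IsPSolvable p X)
    (h0 : pPrimeCore p X = ⊥) (P : Sylow p X) : Nat.card (ConjClasses X) ≤ Nat.card P ∧
    ((∃ a ∈ P, ∃ b ∈ P, a * b ≠ b * a) → Nat.card (ConjClasses X) < Nat.card P) := by
  have h := ind hk _ X rfl hs h0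
  rw [← P.card_eq_multiplicity] at h
  refine ⟨h.1, fun hab => ?_⟩
  by_cases hi : p ∣ (pCore p X).index
  · exact h.2 hi
  have hle := (CL.isPGroup_pCore p X).le_sylow_of_normal P
  have he : pCore p X = P := by
    let R : Sylow p X := (CL.isPGroup_pCore p X).toSylow hi
    exact (R.is_maximal' P.isPGroup' hle).symm
  have := (closed hk hs h0 hi).2
  rw [he] at this
  exact this hab

end CL.KgvP
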